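import Mathlib
import Cfsg.Agent.Lib.Helper12.OHyp.ExDefs

/-!
# OHYP (S5992), package [EMQ] of the [EXIST] cut

The model form `modelQ QE j f` (orthogonal sum of `j` copies of a nondegenerate quadratic form
`QE` and of `f` squares) is a nondegenerate quadratic form when `2 ≠ 0`.
-/

set_option autoImplicit false
open scoped MatrixGroups
open Matrix

namespace Cfsg.Agent.Lib.Helper15.OHyp

open Cfsg.Agent.Lib.Helper23.OHyp Cfsg.Agent.Lib.Helper12.OHyp

universe u

section emq

set_option linter.unusedSectionVars false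

variable {F : Type u} [Field F] {κ : Type} [Fintype κ] [DecidableEq κ]

/-- The `t`-th block of a vector of the model space. -/
def emqBlk {j f : ℕ} (v : (κ × Fin j) ⊕ Fin f → F) (t : Fin j) : κ → F :=
  fun k => v (Sum.inl (k, t))

theorem emq_modelQ_eq (QE : (κ → F) → F) (j f : ℕ) (v : (κ × Fin j) ⊕ Fin f → F) :
    modelQ QE j f v = (∑ t : Fin j, QE (emqBlk v t)) + ∑ s : Fin f, v (Sum.inr s) ^ 2 := rfl

theorem emqBlk_add {j f : ℕ} (u v : (κ × Fin j) ⊕ Fin f → F) (t : Fin j) :
    emqBlk (u + v) t = emqBlk u t + emqBlk v t := rfl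

theorem emqBlk_smul {j f : ℕ} (c : F) (v : (κ × Fin j) ⊕ Fin f → F) (t : Fin j) :
    emqBlk (c • v) t = c • emqBlk v t := rfl

theorem emq_polar (QE : (κ → F) → F) (j f : ℕ) (u v : (κ × Fin j) ⊕ Fin f → F) :
    QuadraticMap.polar (modelQ QE j f) u v =
      (∑ t : Fin j, QuadraticMap.polar QE (emqBlk u t) (emqBlk v t)) +
        ∑ s : Fin f, 2 * u (Sum.inr s) * v (Sum.inr s) := by
  unfold QuadraticMap.polar
  simp only [emq_modelQ_eq, emqBlk_add, Pi.add_apply]
  have h2 : ∑ s : Fin f, (u (Sum.inr s) + v (Sum.inr s)) ^ 2 =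
      ∑ s : Fin f, u (Sum.inr s) ^ 2 + ∑ s : Fin f, v (Sum.inr s) ^ 2 +
        ∑ s : Fin f, 2 * u (Sum.inr s) * v (Sum.inr s) := by
    rw [← Finset.sum_add_distrib, ← Finset.sum_add_distrib]
    exact Finset.sum_congr rfl (fun s _ => by ring)
  rw [Finset.sum_sub_distrib, Finset.sum_sub_distrib, h2]
  ring

theorem emq_polar_zero_left {QE : (κ → F) → F}
    (hQE : Cfsg.Geo.IsNondegenerateQuadraticForm QE) (w : κ → F) :
    QuadraticMap.polar QE 0 w = 0 := by
  have h0 : QE 0 = 0 := by simpa using hQE.smul 0 0
  unfold QuadraticMap.polar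
  rw [zero_add, h0]; ring

theorem pkgEMQ : PkgEMQ.{u} := by
  intro F _ κ _ _ QE j f hQE h2
  have hcomm : ∀ u v, QuadraticMap.polar (modelQ QE j f) u v =
      QuadraticMap.polar (modelQ QE j f) v u := fun u v => QuadraticMap.polar_comm _ u v
  have hbl := hQE.polar_bilinear
  have hadd : ∀ x y v, QuadraticMap.polar (modelQ QE j f) (x + y) v =
      QuadraticMap.polar (modelQ QE j f) x v + QuadraticMap.polar (modelQ QE j f) y v := by
    intro x y v
    rw [emq_polar, emq_polar, emq_polar]
    simp only [emqBlk_add, hbl.add_left, Pi.add_apply, Finset.sum_add_distrib]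
    have : ∑ s : Fin f, 2 * (x (Sum.inr s) + y (Sum.inr s)) * v (Sum.inr s) =
        ∑ s : Fin f, 2 * x (Sum.inr s) * v (Sum.inr s) +
          ∑ s : Fin f, 2 * y (Sum.inr s) * v (Sum.inr s) := by
      rw [← Finset.sum_add_distrib]
      exact Finset.sum_congr rfl (fun s _ => by ring)
    rw [this]; ring
  have hsmul : ∀ (c : F) x v, QuadraticMap.polar (modelQ QE j f) (c • x) v =
      c * QuadraticMap.polar (modelQ QE j f) x v := by
    intro c x v
    rw [emq_polar, emq_polar]
    simp only [emqBlk_smul, hbl.smul_left, Pi.smul_apply, smul_eq_mul]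
    rw [mul_add, Finset.mul_sum, Finset.mul_sum]
    congr 1
    exact Finset.sum_congr rfl (fun s _ => by ring)
  refine ⟨?_, ⟨hadd, hsmul, ?_, ?_⟩, ?_⟩
  · intro c v
    rw [emq_modelQ_eq, emq_modelQ_eq]
    simp only [emqBlk_smul, hQE.smul, Pi.smul_apply, smul_eq_mul]
    rw [mul_add, Finset.mul_sum, Finset.mul_sum]
    congr 1
    exact Finset.sum_congr rfl (fun s _ => by ring)
  · intro v x y
    rw [hcomm v (x + y), hcomm v x, hcomm v y]
    exact hadd x y v
  · intro c v x
    rw [hcomm v (c • x), hcomm v x]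
    exact hsmul c x v
  · intro v hv
    have key : ∃ x, QuadraticMap.polar (modelQ QE j f) x v ≠ 0 := by
      have hex : ∃ idx, v idx ≠ 0 := by
        by_contra hcon
        push Not at hcon
        exact hv (funext hcon)
      obtain ⟨idx, hidx⟩ := hex
      rcases idx with ⟨k, t⟩ | s
      · have hbv : emqBlk v t ≠ 0 := by
          intro h0
          exact hidx (congrFun h0 k)
        obtain ⟨x0, hx0⟩ := (hQE.nondegenerate _ hbv).1
        refine ⟨fun idx => Sum.elim (fun p : κ × Fin j => if p.2 = t then x0 p.1 else 0)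
          (fun _ => 0) idx, ?_⟩
        rw [emq_polar]
        have hb : ∀ t' : Fin j,
            emqBlk (F := F) (f := f) (fun idx => Sum.elim
              (fun p : κ × Fin j => if p.2 = t then x0 p.1 else 0) (fun _ => 0) idx) t' =
              if t' = t then x0 else 0 := by
          intro t'
          funext k'
          by_cases ht : t' = t <;> simp [emqBlk, ht]
        simp only [hb, Sum.elim_inr, mul_zero, zero_mul, Finset.sum_const_zero, add_zero]
        rw [Finset.sum_eq_single t]
        · simpa using hx0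
        · intro t' _ ht'
          simp only [ht', if_false]
          exact emq_polar_zero_left hQE _
        · intro h; exact absurd (Finset.mem_univ t) h
      · refine ⟨Pi.single (Sum.inr s) 1, ?_⟩
        rw [emq_polar]
        have hb : ∀ t' : Fin j,
            emqBlk (F := F) (κ := κ) (f := f) (Pi.single (Sum.inr s) 1) t' = 0 := by
          intro t'
          funext k'
          simp [emqBlk]
        simp only [hb, emq_polar_zero_left hQE, Finset.sum_const_zero, zero_add]
        rw [Finset.sum_eq_single s]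
        · simp only [Pi.single_eq_same, mul_one]
          exact mul_ne_zero h2 hidx
        · intro s' _ hs'
          have : (Pi.single (Sum.inr s) (1 : F) : (κ × Fin j) ⊕ Fin f → F) (Sum.inr s') = 0 := by
            rw [Pi.single_apply]
            simp [hs']
          rw [this]; ring
        · intro h; exact absurd (Finset.mem_univ s) h
    obtain ⟨x, hx⟩ := key
    exact ⟨⟨x, hx⟩, ⟨x, by rwa [hcomm v x]⟩⟩

end emq

end Cfsg.Agent.Lib.Helper15.OHyp
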