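import Mathlib
import Cfsg.Agent.Lib.Helper23.OHyp.Defs

/-!
# OHYP (S5992), package [INVOL]

An involution of the isometry group of a nondegenerate quadratic form over a finite field of odd
characteristic fixes a nondegenerate subspace of plus type of every even dimension `m < n`.
Proved from the packages [PERP] and [SUM], by splitting off invariant hyperbolic planes.
-/

set_option autoImplicit false
open scoped MatrixGroups
open Matrix

namespace Cfsg.Agent.Lib.Helper15.OHyp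

open Cfsg.Agent.Lib.Helper23.OHyp

universe u

section basic

set_option linter.unusedSectionVars false

variable {F : Type u} [Field F] {ι : Type} [Fintype ι] [DecidableEq ι]
variable {Q : (ι → F) → F}

theorem Q_zero (hQ : Cfsg.Geo.IsNondegenerateQuadraticForm Q) : Q 0 = 0 := by
  have := hQ.smul 0 0
  simpa using this

theorem Q_add (a b : ι → F) : Q (a + b) = Q a + Q b + QuadraticMap.polar Q a b := by
  unfold QuadraticMap.polar; ring

theorem B_self (hQ : Cfsg.Geo.IsNondegenerateQuadraticForm Q) (v : ι → F) :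
    QuadraticMap.polar Q v v = 2 * Q v := by
  have h := hQ.smul 2 v
  rw [two_smul] at h
  unfold QuadraticMap.polar
  rw [h]; ring

theorem B_isom {X : Matrix ι ι F} (hiso : ∀ v, Q (X *ᵥ v) = Q v) (a b : ι → F) :
    QuadraticMap.polar Q (X *ᵥ a) (X *ᵥ b) = QuadraticMap.polar Q a b := by
  unfold QuadraticMap.polar
  rw [← Matrix.mulVec_add, hiso, hiso, hiso]

theorem B_zero_right (hQ : Cfsg.Geo.IsNondegenerateQuadraticForm Q) (a : ι → F) :
    QuadraticMap.polar Q a 0 = 0 := by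
  have := hQ.polar_bilinear.smul_right 0 a 0
  simpa using this

/-- A nondegenerate nonzero invariant subspace contains a nonsingular eigenvector of an
involutory isometry. -/
theorem exists_eigen (hQ : Cfsg.Geo.IsNondegenerateQuadraticForm Q) (h2 : (2 : F) ≠ 0)
    {X : Matrix ι ι F} (hiso : ∀ v, Q (X *ᵥ v) = Q v) (hXX : X * X = 1)
    {C : Submodule F (ι → F)} (hInv : Inv X C) (hNd : Nd Q C) (hC : C ≠ ⊥) :
    ∃ u ∈ C, ∃ ε : F, X *ᵥ u = ε • u ∧ Q u ≠ 0 := by
  have hB := hQ.polar_bilinear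
  obtain ⟨v₀, hv₀, hv₀0⟩ := Submodule.exists_mem_ne_zero_of_ne_bot hC
  obtain ⟨⟨y, hy, hne⟩, -⟩ := hNd v₀ hv₀ hv₀0
  have hex : ∃ v ∈ C, Q v ≠ 0 := by
    by_contra hcon
    push Not at hcon
    apply hne
    unfold QuadraticMap.polar
    rw [hcon _ (C.add_mem hy hv₀), hcon _ hy, hcon _ hv₀]; ring
  obtain ⟨v, hv, hQv⟩ := hex
  have hXv : X *ᵥ v ∈ C := by
    have := hInv (Submodule.mem_map_of_mem hv)
    rwa [Matrix.toLin'_apply] at this
  have hXXv : X *ᵥ (X *ᵥ v) = v := by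
    rw [Matrix.mulVec_mulVec, hXX, Matrix.one_mulVec]
  set a := v + X *ᵥ v with ha
  set b := v - X *ᵥ v with hb
  have hXa : X *ᵥ a = (1 : F) • a := by
    rw [ha, Matrix.mulVec_add, hXXv, one_smul, add_comm]
  have hXb : X *ᵥ b = (-1 : F) • b := by
    rw [hb, Matrix.mulVec_sub, hXXv, neg_one_smul, neg_sub]
  have hab : QuadraticMap.polar Q a b = 0 := by
    have h1 := B_isom hiso a b
    rw [hXa, hXb, one_smul, hB.smul_right] at h1
    have h3 : (2 : F) * QuadraticMap.polar Q a b = 0 := by linear_combination -h1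
    rcases mul_eq_zero.mp h3 with h | h
    · exact absurd h h2
    · exact h
  have hsum : a + b = v + v := by rw [ha, hb]; abel
  have hQ4 : Q (v + v) = 4 * Q v := by
    have h := hQ.smul 2 v
    rw [two_smul] at h
    rw [h]; ring
  have hQab : Q a + Q b = 4 * Q v := by
    have h := Q_add (Q := Q) a b
    rw [hab, add_zero, hsum, hQ4] at h
    exact h.symm
  have h4 : (4 : F) * Q v ≠ 0 := by
    have : (4 : F) = 2 * 2 := by norm_num
    rw [this]
    exact mul_ne_zero (mul_ne_zero h2 h2) hQv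
  by_cases hQa : Q a = 0
  · refine ⟨b, C.sub_mem hv hXv, -1, hXb, ?_⟩
    intro hQb
    rw [hQa, hQb, add_zero] at hQab
    exact h4 hQab.symm
  · exact ⟨a, C.add_mem hv hXv, 1, hXa, hQa⟩

/-- The orthogonal complement of a nonsingular eigenvector, from [PERP]. -/
theorem perp_eigen (hP : PkgPerp.{u}) (hQ : Cfsg.Geo.IsNondegenerateQuadraticForm Q)
    (h2 : (2 : F) ≠ 0) {X : Matrix ι ι F} (hiso : ∀ v, Q (X *ᵥ v) = Q v) (hdet : IsUnit X.det)
    {C : Submodule F (ι → F)} (hInv : Inv X C) (hNd : Nd Q C)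
    {u : ι → F} (hu : u ∈ C) {ε : F} (hXu : X *ᵥ u = ε • u) (hQu : Q u ≠ 0) :
    ∃ C' : Submodule F (ι → F), C' ≤ C ∧ Inv X C' ∧ Nd Q C' ∧
      (∀ v ∈ C', QuadraticMap.polar Q u v = 0) ∧
      Module.finrank F C = 1 + Module.finrank F C' := by
  have hB := hQ.polar_bilinear
  have hu0 : u ≠ 0 := by
    rintro rfl; exact hQu (Q_zero hQ)
  have hD : Submodule.span F {u} ≤ C := by
    rw [Submodule.span_le]; intro z hz
    rw [Set.mem_singleton_iff] at hz; rw [hz]; exact hu
  have hDinv : Inv X (Submodule.span F {u}) := by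
    rintro _ ⟨z, hz, rfl⟩
    obtain ⟨c, rfl⟩ := Submodule.mem_span_singleton.mp hz
    rw [map_smul, Matrix.toLin'_apply, hXu]
    exact Submodule.smul_mem _ _ (Submodule.smul_mem _ _ (Submodule.mem_span_singleton_self u))
  have hDnd : Nd Q (Submodule.span F {u}) := by
    intro w hw hw0
    obtain ⟨c, rfl⟩ := Submodule.mem_span_singleton.mp hw
    have hc : c ≠ 0 := by rintro rfl; exact hw0 (zero_smul _ _)
    have hne : c * (2 * Q u) ≠ 0 := mul_ne_zero hc (mul_ne_zero h2 hQu)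
    refine ⟨⟨u, Submodule.mem_span_singleton_self u, ?_⟩,
      ⟨u, Submodule.mem_span_singleton_self u, ?_⟩⟩
    · rw [hB.smul_right, B_self hQ]; exact hne
    · rw [hB.smul_left, B_self hQ]; exact hne
  obtain ⟨C', hC'C, hC'inv, hC'nd, hperp, -, hdim⟩ :=
    hP F ι Q hQ X hiso hdet C (Submodule.span F {u}) hD hInv hDinv hNd hDnd
  refine ⟨C', hC'C, hC'inv, hC'nd, fun v hv => hperp u (Submodule.mem_span_singleton_self u) v hv,
    ?_⟩
  rw [hdim, finrank_span_singleton hu0]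

/-- The invariant hyperbolic plane spanned by two orthogonal eigenvectors `u`, `w` with
`Q w = - Q u ≠ 0`. -/
theorem hyp_plane (hQ : Cfsg.Geo.IsNondegenerateQuadraticForm Q) (h2 : (2 : F) ≠ 0)
    {X : Matrix ι ι F} {C : Submodule F (ι → F)} {u w : ι → F} (hu : u ∈ C) (hw : w ∈ C)
    {ε ε' : F} (hXu : X *ᵥ u = ε • u) (hXw : X *ᵥ w = ε' • w)
    (huw : QuadraticMap.polar Q u w = 0) (hQu : Q u ≠ 0) (hQw : Q w = - Q u) :
    ∃ P : Submodule F (ι → F), P ≤ C ∧ Inv X P ∧ Nd Q P ∧ Module.finrank F P = 2 ∧ Plus Q P := by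
  have hB := hQ.polar_bilinear
  have hQw0 : Q w ≠ 0 := by rw [hQw]; exact neg_ne_zero.mpr hQu
  have hwu : QuadraticMap.polar Q w u = 0 := by rw [QuadraticMap.polar_comm]; exact huw
  have hind : LinearIndependent F ![u, w] := by
    rw [LinearIndependent.pair_iff]
    intro s t hst
    have h1 : QuadraticMap.polar Q u (s • u + t • w) = s * (2 * Q u) := by
      rw [hB.add_right, hB.smul_right, hB.smul_right, huw, B_self hQ]; ring
    have h1' : QuadraticMap.polar Q w (s • u + t • w) = t * (2 * Q w) := by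
      rw [hB.add_right, hB.smul_right, hB.smul_right, hwu, B_self hQ]; ring
    rw [hst, B_zero_right hQ] at h1 h1'
    constructor
    · rcases mul_eq_zero.mp h1.symm with h | h
      · exact h
      · exact absurd h (mul_ne_zero h2 hQu)
    · rcases mul_eq_zero.mp h1'.symm with h | h
      · exact h
      · exact absurd h (mul_ne_zero h2 hQw0)
  have hrange : Set.range ![u, w] = {u, w} := by
    ext z
    constructor
    · rintro ⟨i, rfl⟩
      fin_cases i
      · exact Set.mem_insert _ _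
      · exact Set.mem_insert_of_mem _ rfl
    · rintro (rfl | hz)
      · exact ⟨0, rfl⟩
      · rw [Set.mem_singleton_iff] at hz; exact ⟨1, by rw [hz]; rfl⟩
  have hdim : Module.finrank F (Submodule.span F ({u, w} : Set (ι → F))) = 2 := by
    rw [← hrange, finrank_span_eq_card hind]; simp
  refine ⟨Submodule.span F {u, w}, ?_, ?_, ?_, hdim, ?_⟩
  · rw [Submodule.span_le]; intro z hz
    rcases hz with rfl | hz
    · exact hu
    · rw [Set.mem_singleton_iff] at hz; rw [hz]; exact hw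
  · rintro _ ⟨z, hz, rfl⟩
    obtain ⟨c, d, rfl⟩ := Submodule.mem_span_pair.mp hz
    rw [map_add, map_smul, map_smul, Matrix.toLin'_apply, Matrix.toLin'_apply, hXu, hXw]
    exact Submodule.mem_span_pair.mpr ⟨c * ε, d * ε', by simp [smul_smul]⟩
  · intro z hz hz0
    obtain ⟨c, d, rfl⟩ := Submodule.mem_span_pair.mp hz
    have hmu : u ∈ Submodule.span F ({u, w} : Set (ι → F)) :=
      Submodule.subset_span (Set.mem_insert _ _)
    have hmw : w ∈ Submodule.span F ({u, w} : Set (ι → F)) :=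
      Submodule.subset_span (Set.mem_insert_of_mem _ rfl)
    have h1 : QuadraticMap.polar Q u (c • u + d • w) = c * (2 * Q u) := by
      rw [hB.add_right, hB.smul_right, hB.smul_right, huw, B_self hQ]; ring
    have h1' : QuadraticMap.polar Q w (c • u + d • w) = d * (2 * Q w) := by
      rw [hB.add_right, hB.smul_right, hB.smul_right, hwu, B_self hQ]; ring
    by_cases hc : c = 0
    · have hd : d ≠ 0 := by
        rintro rfl; apply hz0; rw [hc]; simp
      have hne : QuadraticMap.polar Q w (c • u + d • w) ≠ 0 := by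
        rw [h1']; exact mul_ne_zero hd (mul_ne_zero h2 hQw0)
      exact ⟨⟨w, hmw, hne⟩, ⟨w, hmw, by rw [QuadraticMap.polar_comm]; exact hne⟩⟩
    · have hne : QuadraticMap.polar Q u (c • u + d • w) ≠ 0 := by
        rw [h1]; exact mul_ne_zero hc (mul_ne_zero h2 hQu)
      exact ⟨⟨u, hmu, hne⟩, ⟨u, hmu, by rw [QuadraticMap.polar_comm]; exact hne⟩⟩
  · refine ⟨Submodule.span F {u + w}, ?_, ?_, ?_⟩
    · rw [Submodule.span_le]; intro z hz
      rw [Set.mem_singleton_iff] at hz; rw [hz]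
      exact Submodule.mem_span_pair.mpr ⟨1, 1, by simp⟩
    · intro z hz
      obtain ⟨c, rfl⟩ := Submodule.mem_span_singleton.mp hz
      rw [hQ.smul, Q_add (Q := Q) u w, huw, hQw]; ring
    · have hne : u + w ≠ 0 := by
        intro h0
        have h1 : QuadraticMap.polar Q u (u + w) = 2 * Q u := by
          rw [hB.add_right, huw, B_self hQ, add_zero]
        rw [h0, B_zero_right hQ] at h1
        exact mul_ne_zero h2 hQu h1.symm
      rw [finrank_span_singleton hne, hdim]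

end basic

/-- Universality of a binary diagonal form over a finite field of odd characteristic. -/
theorem exists_sq_add_sq {F : Type u} [Field F] [Fintype F] (h2 : (2 : F) ≠ 0) (α β c : F)
    (hα : α ≠ 0) (hβ : β ≠ 0) : ∃ s t : F, α * s ^ 2 + β * t ^ 2 = c := by
  have hchar : ringChar F ≠ 2 := by
    intro h
    apply h2
    have := ringChar.Nat.cast_ringChar (R := F)
    rw [h] at this
    exact_mod_cast this
  have hodd : Fintype.card F % 2 = 1 := FiniteField.odd_card_of_char_ne_two hchar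
  have hf : (Polynomial.C α * Polynomial.X ^ 2 : Polynomial F).degree = 2 := by
    rw [Polynomial.degree_C_mul_X_pow 2 hα]; rfl
  have hg : (Polynomial.C β * Polynomial.X ^ 2 - Polynomial.C c : Polynomial F).degree = 2 := by
    rw [Polynomial.degree_sub_eq_left_of_degree_lt]
    · rw [Polynomial.degree_C_mul_X_pow 2 hβ]; rfl
    · rw [Polynomial.degree_C_mul_X_pow 2 hβ]
      exact lt_of_le_of_lt Polynomial.degree_C_le (by norm_num)
  obtain ⟨s, t, hst⟩ := FiniteField.exists_root_sum_quadratic hf hg hodd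
  refine ⟨s, t, ?_⟩
  simp only [Polynomial.eval_mul, Polynomial.eval_C, Polynomial.eval_pow, Polynomial.eval_X,
    Polynomial.eval_sub] at hst
  linear_combination hst

/-- The induction: invariant nondegenerate subspaces of plus type of every even dimension. -/
theorem invol_main (hP : PkgPerp.{u}) (hS : PkgSum.{u}) {F : Type u} [Field F] [Fintype F]
    {ι : Type} [Fintype ι] [DecidableEq ι] (Q : (ι → F) → F)
    (hQ : Cfsg.Geo.IsNondegenerateQuadraticForm Q) (h2 : (2 : F) ≠ 0)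
    (X : Matrix ι ι F) (hiso : ∀ v, Q (X *ᵥ v) = Q v) (hXX : X * X = 1) (hdet : IsUnit X.det) :
    ∀ k : ℕ, ∀ C : Submodule F (ι → F), Inv X C → Nd Q C → 2 * k + 1 ≤ Module.finrank F C →
      ∃ W : Submodule F (ι → F), W ≤ C ∧ Inv X W ∧ Nd Q W ∧ Module.finrank F W = 2 * k ∧
        Plus Q W := by
  have hB := hQ.polar_bilinear
  intro k
  induction k with
  | zero =>
    intro C _ _ _
    refine ⟨⊥, bot_le, ?_, ?_, by simp, ?_⟩
    · intro z hz
      rw [Submodule.map_bot] at hz; exact hz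
    · intro w hw hw0
      exact absurd ((Submodule.mem_bot F).mp hw) hw0
    · refine ⟨⊥, le_rfl, ?_, by simp⟩
      intro w hw
      rw [(Submodule.mem_bot F).mp hw]; exact Q_zero hQ
  | succ k ih =>
    intro C hInv hNd hdim
    have hne : ∀ {C' : Submodule F (ι → F)}, 1 ≤ Module.finrank F C' → C' ≠ ⊥ := by
      intro C' h hbot
      rw [hbot, finrank_bot] at h; omega
    -- three pairwise orthogonal nonsingular eigenvectors
    obtain ⟨u₀, hu₀, ε₀, hX₀, hQ₀⟩ := exists_eigen hQ h2 hiso hXX hInv hNd (hne (by omega))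
    obtain ⟨C₁, hC₁C, hInv₁, hNd₁, hperp₁, hdim₁⟩ :=
      perp_eigen hP hQ h2 hiso hdet hInv hNd hu₀ hX₀ hQ₀
    obtain ⟨u₁, hu₁, ε₁, hX₁, hQ₁⟩ := exists_eigen hQ h2 hiso hXX hInv₁ hNd₁ (hne (by omega))
    obtain ⟨C₂, hC₂C, hInv₂, hNd₂, hperp₂, hdim₂⟩ :=
      perp_eigen hP hQ h2 hiso hdet hInv₁ hNd₁ hu₁ hX₁ hQ₁
    obtain ⟨u₂, hu₂, ε₂, hX₂, hQ₂⟩ := exists_eigen hQ h2 hiso hXX hInv₂ hNd₂ (hne (by omega))
    have h01 : QuadraticMap.polar Q u₀ u₁ = 0 := hperp₁ u₁ hu₁
    have h02 : QuadraticMap.polar Q u₀ u₂ = 0 := hperp₁ u₂ (hC₂C hu₂)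
    have h12 : QuadraticMap.polar Q u₁ u₂ = 0 := hperp₂ u₂ hu₂
    have hu₁C : u₁ ∈ C := hC₁C hu₁
    have hu₂C : u₂ ∈ C := hC₁C (hC₂C hu₂)
    -- the eigenvalues are `± 1`
    have heps : ∀ {v : ι → F} {ε : F}, X *ᵥ v = ε • v → Q v ≠ 0 → ε = 1 ∨ ε = -1 := by
      intro v ε hv hQv
      have h1 := hiso v
      rw [hv, hQ.smul] at h1
      have h3 : (ε ^ 2 - 1) * Q v = 0 := by linear_combination h1
      rcases mul_eq_zero.mp h3 with h | h
      · have h4 : ε * ε = 1 := by linear_combination h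
        exact mul_self_eq_one_iff.mp h4
      · exact absurd h hQv
    -- a pair with equal eigenvalues and a third vector
    have hpair : ∃ (a b s : ι → F) (ε ε' : F), a ∈ C ∧ b ∈ C ∧ s ∈ C ∧
        X *ᵥ a = ε • a ∧ X *ᵥ b = ε • b ∧ X *ᵥ s = ε' • s ∧
        QuadraticMap.polar Q a b = 0 ∧ QuadraticMap.polar Q s a = 0 ∧
        QuadraticMap.polar Q s b = 0 ∧ Q a ≠ 0 ∧ Q b ≠ 0 ∧ Q s ≠ 0 := by
      by_cases e12 : ε₁ = ε₂
      · exact ⟨u₁, u₂, u₀, ε₁, ε₀, hu₁C, hu₂C, hu₀, hX₁, e12 ▸ hX₂, hX₀, h12, h01, h02,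
          hQ₁, hQ₂, hQ₀⟩
      · by_cases e01 : ε₀ = ε₁
        · refine ⟨u₀, u₁, u₂, ε₀, ε₂, hu₀, hu₁C, hu₂C, hX₀, e01 ▸ hX₁, hX₂, h01, ?_, ?_,
            hQ₀, hQ₁, hQ₂⟩
          · rw [QuadraticMap.polar_comm]; exact h02
          · rw [QuadraticMap.polar_comm]; exact h12
        · have e02 : ε₀ = ε₂ := by
            rcases heps hX₀ hQ₀ with h0 | h0 <;> rcases heps hX₁ hQ₁ with h1 | h1 <;>
              rcases heps hX₂ hQ₂ with h2' | h2' <;> simp_all
          refine ⟨u₀, u₂, u₁, ε₀, ε₁, hu₀, hu₂C, hu₁C, hX₀, e02 ▸ hX₂, hX₁, h02, ?_, h12,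
            hQ₀, hQ₂, hQ₁⟩
          rw [QuadraticMap.polar_comm]; exact h01
    obtain ⟨a, b, s, ε, ε', haC, hbC, hsC, hXa, hXb, hXs, hab, hsa, hsb, hQa, hQb, hQs⟩ := hpair
    obtain ⟨σ, τ, hστ⟩ := exists_sq_add_sq h2 (Q a) (Q b) (-Q s) hQa hQb
    -- the hyperbolic plane
    have hw : σ • a + τ • b ∈ C := C.add_mem (C.smul_mem _ haC) (C.smul_mem _ hbC)
    have hXw : X *ᵥ (σ • a + τ • b) = ε • (σ • a + τ • b) := by
      rw [Matrix.mulVec_add, Matrix.mulVec_smul, Matrix.mulVec_smul, hXa, hXb, smul_add,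
        smul_comm σ ε a, smul_comm τ ε b]
    have hsw : QuadraticMap.polar Q s (σ • a + τ • b) = 0 := by
      rw [hB.add_right, hB.smul_right, hB.smul_right, hsa, hsb]; ring
    have hQw : Q (σ • a + τ • b) = - Q s := by
      rw [Q_add (Q := Q) (σ • a) (τ • b), hQ.smul, hQ.smul, hB.smul_left, hB.smul_right, hab, ← hστ]; ring
    obtain ⟨P, hPC, hPinv, hPnd, hPdim, hPplus⟩ :=
      hyp_plane hQ h2 hsC hw hXs hXw hsw hQs hQw
    -- split off the plane and use induction
    obtain ⟨C', hC'C, hC'inv, hC'nd, hperp, -, hdimC⟩ :=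
      hP F ι Q hQ X hiso hdet C P hPC hInv hPinv hNd hPnd
    obtain ⟨W', hW'C', hW'inv, hW'nd, hW'dim, hW'plus⟩ :=
      ih C' hC'inv hC'nd (by omega)
    have hperp' : Perp Q P W' := fun x hx y hy => hperp x hx y (hW'C' hy)
    obtain ⟨hnd, hdimW, hplus⟩ := hS F ι Q hQ h2 P W' hPnd hW'nd hperp'
    refine ⟨P ⊔ W', sup_le hPC (hW'C'.trans hC'C), ?_, hnd, ?_, ?_⟩
    · intro z hz
      rw [Submodule.map_sup] at hz
      exact sup_le (hPinv.trans le_sup_left) (hW'inv.trans le_sup_right) hz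
    · rw [hdimW, hPdim, hW'dim]; ring
    · exact (hplus (by rw [hPdim]; decide) (by rw [hW'dim]; exact even_two_mul k)).mpr
        ⟨fun _ => hW'plus, fun _ => hPplus⟩

theorem pkgInvol_of (hP : PkgPerp.{u}) (hS : PkgSum.{u}) : PkgInvol.{u} := by
  intro F _ _ ι _ _ Q hQ h2 x hx hx2 m hm hmn _
  have hiso : ∀ v, Q ((x : Matrix ι ι F) *ᵥ v) = Q v := fun v => hx v v
  have hXX : (x : Matrix ι ι F) * (x : Matrix ι ι F) = 1 := by
    have h := congrArg (fun t : GL ι F => (t : Matrix ι ι F)) hx2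
    simpa [pow_two] using h
  have hdet : IsUnit (x : Matrix ι ι F).det := (Matrix.isUnit_iff_isUnit_det _).mp x.isUnit
  obtain ⟨k, hk⟩ := hm
  have hk' : m = 2 * k := by omega
  subst hk'
  have htop_inv : Inv (x : Matrix ι ι F) (⊤ : Submodule F (ι → F)) := le_top
  have htop_nd : Nd Q (⊤ : Submodule F (ι → F)) := by
    intro w _ hw0
    obtain ⟨⟨y, hy⟩, ⟨y', hy'⟩⟩ := hQ.nondegenerate w hw0
    exact ⟨⟨y, Submodule.mem_top, hy⟩, ⟨y', Submodule.mem_top, hy'⟩⟩
  have hfin : Module.finrank F (⊤ : Submodule F (ι → F)) = Fintype.card ι := by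
    rw [finrank_top, Module.finrank_fintype_fun_eq_card]
  obtain ⟨W, -, hWinv, hWnd, hWdim, hWplus⟩ :=
    invol_main hP hS Q hQ h2 (x : Matrix ι ι F) hiso hXX hdet k ⊤ htop_inv htop_nd
      (by rw [hfin]; exact hmn)
  exact ⟨W, ⟨hWdim, hWnd, hWplus⟩, hWinv⟩

end Cfsg.Agent.Lib.Helper15.OHyp
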